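import Mathlib
import Cfsg.Agent.FG.ClassCount
import Cfsg.Agent.ChS.Res

/-! Class numbers of permutation groups: invariant partitions and classes meeting a coset. -/

set_option autoImplicit false

namespace Cfsg.Agent.KP

open Equiv MulAction Finset ChS FG

/-- the number of conjugacy classes -/
noncomputable abbrev kc (G : Type*) [Group G] : ℕ := Nat.card (ConjClasses G)

/-- the bound for all degrees below `N` -/
def IH (N : ℕ) : Prop :=
  ∀ (β : Type) [Fintype β] [DecidableEq β] (X : Subgroup (Perm β)), Fintype.card β < N →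
    kc X ≤ 2 ^ (Fintype.card β - 1)

theorem IH.mono {N M : ℕ} (h : IH N) (hM : M ≤ N) : IH M := fun β _ _ X k => h β X (k.trans_le hM)

theorem kc_map {G H : Type*} [Group G] [Group H] (K : Subgroup G) (f : G →* H) (hf : Function.Injective f) :
    kc (K.map f) = kc K := (card_conjClasses_congr (K.equivMapOfInjective f hf)).symm

theorem kc_le_one {G : Type*} [Group G] [Finite G] {K : Subgroup G} (h : ∀ g ∈ K, g = 1) : kc K ≤ 1 := by
  have : Subsingleton K := ⟨fun a b => Subtype.ext ((h _ a.2).trans (h _ b.2).symm)⟩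
  exact card_conjClasses_le_card.trans (Finite.card_le_one_iff_subsingleton.2 this)

theorem kc_le {G H : Type*} [Group G] [Finite G] [Group H] (K : Subgroup G) (φ : K →* H) :
    kc K ≤ kc (φ.ker.map K.subtype) * kc φ.range := by
  rw [kc_map _ _ K.subtype_injective]
  exact card_conjClasses_le_ker_mul_range φ

theorem part {α ι : Type} [Fintype α] [DecidableEq α] [DecidableEq ι] {N : ℕ} (ih : IH N) (π : α → ι)
    (R : Finset ι) : ∀ K : Subgroup (Perm α), (∀ g ∈ K, ∀ x, π (g x) = π x) →
      (∀ g ∈ K, (∀ x, π x ∈ R → g x = x) → g = 1) →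
      (∀ i ∈ R, 0 < #{x | π x = i} ∧ #{x | π x = i} < N) → kc K * 2 ^ #R ≤ 2 ^ #{x | π x ∈ R} := by
  induction R using Finset.induction_on with
  | empty =>
    intro K _ h _
    simpa using kc_le_one fun g hg => h g hg (by simp)
  | insert i R hi ihR =>
    intro K h1 h2 h3
    have hB : ∀ g ∈ K, ∀ x ∈ ({x | π x = i} : Finset α), g x ∈ ({x | π x = i} : Finset α) := fun g hg x hx => by
      simpa [h1 g hg] using hx
    have a1 := kc_le K (ResH.res K _ hB)
    have a2 := ihR ((ResH.res K _ hB).ker.map K.subtype) (by rintro _ ⟨g, -, rfl⟩; exact h1 _ g.2)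
      (by
        rintro _ ⟨g, hg, rfl⟩ h
        refine h2 _ g.2 fun x hx => ?_
        rcases mem_insert.1 hx with e | e
        · exact (mem_fixingSubgroup_iff _).1 ((ResH.res_eq_one K _ hB g).1 hg) x (by simpa using e)
        · exact h x e)
      fun j hj => h3 j (mem_insert_of_mem hj)
    obtain ⟨b1, b2⟩ := h3 i (mem_insert_self _ _)
    have a3 := ih _ (ResH.res K _ hB).range (by rwa [Fintype.card_coe])
    rw [Fintype.card_coe] at a3
    have e : #{x | π x ∈ insert i R} = #{x | π x ∈ R} + #{x | π x = i} := by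
      rw [← card_union_of_disjoint (disjoint_filter.2 fun x _ (h : π x ∈ R) (k : π x = i) => hi (k ▸ h)), ← filter_or]
      exact congrArg card (filter_congr fun x _ => by rw [mem_insert, or_comm])
    rw [e, card_insert_of_notMem hi]
    generalize #{x | π x = i} = b at *
    obtain ⟨b, rfl⟩ : ∃ c, b = c + 1 := ⟨b - 1, by omega⟩
    calc _ ≤ kc _ * 2 ^ b * 2 ^ (#R + 1) := Nat.mul_le_mul_right _ (a1.trans (Nat.mul_le_mul_left _ a3))
      _ = kc _ * 2 ^ #R * 2 ^ (b + 1) := by ring
      _ ≤ _ := by rw [pow_add 2 _ (b + 1)]; exact Nat.mul_le_mul_right _ a2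

/-- The number of classes meeting an invariant subset of a coset. -/
theorem coset {G : Type*} [Group G] [Finite G] {K H : Subgroup G} (X : Set G)
    (h1 : ∀ x ∈ X, ∀ y ∈ X, x⁻¹ * y ∈ H) (h2 : ∀ k ∈ K, ∀ x ∈ X, k * x * k⁻¹ ∈ X) :
    (ConjClasses.mk '' X).ncard ≤ K.relIndex H * kc K := by
  classical
  cases nonempty_fintype G
  let _ : MulAction K X :=
    { smul := fun k x => ⟨k * x * k⁻¹, h2 _ k.2 _ x.2⟩
      one_smul := fun x => Subtype.ext (by change ((1 : K) : G) * x * ((1 : K) : G)⁻¹ = x; simp)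
      mul_smul := fun a b x => Subtype.ext (by
        change ((a * b : K) : G) * x * ((a * b : K) : G)⁻¹ = a * (b * x * (b : G)⁻¹) * (a : G)⁻¹
        simp [mul_assoc]) }
  have hs : ∀ (k : K) (x : X), ((k • x : X) : G) = k * x * (k : G)⁻¹ := fun _ _ => rfl
  have a1 : (ConjClasses.mk '' X).ncard ≤ Nat.card (orbitRel.Quotient K X) := by
    rw [← Nat.card_coe_set_eq]
    refine Nat.card_le_card_of_surjective (Quotient.lift (fun x : X => (⟨ConjClasses.mk x.1, x.1, x.2, rfl⟩ :
      ConjClasses.mk '' X)) ?_) ?_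
    · rintro a b ⟨k, rfl⟩
      exact Subtype.ext (ConjClasses.mk_eq_mk_iff_isConj.2 (isConj_iff.2 ⟨(k : G), (hs k b).symm⟩).symm)
    · rintro ⟨_, x, hx, rfl⟩
      exact ⟨Quotient.mk _ ⟨x, hx⟩, rfl⟩
  have a2 : ∑ k : K, Nat.card (fixedBy X k) = Nat.card (orbitRel.Quotient K X) * Nat.card K := by
    rw [← Nat.card_sigma, Nat.card_congr (sigmaFixedByEquivOrbitsProdGroup K X), Nat.card_prod]
  have a3 : ∀ k : K, Nat.card (fixedBy X k) ≤ K.relIndex H * Nat.card (Subgroup.centralizer ({k} : Set K)) := by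
    intro k
    have b1 : Nat.card (fixedBy X k) ≤ Nat.card ↥(H ⊓ Subgroup.centralizer ({(k : G)} : Set G)) := by
      rcases isEmpty_or_nonempty (fixedBy X k) with e | ⟨⟨x, hx⟩⟩
      · simp
      have c : ∀ y : fixedBy X k, Commute (y.1 : G) k := fun y =>
        (mul_inv_eq_iff_eq_mul.1 ((hs k y.1).symm.trans (congrArg Subtype.val y.2))).symm
      refine Nat.card_le_card_of_injective (fun y => ⟨(x : G)⁻¹ * y.1, h1 _ x.2 _ y.1.2,
        mem_centralizer_single.2 ((c ⟨x, hx⟩).inv_left.mul_left (c y)).eq⟩) fun y y' e => ?_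
      exact Subtype.ext (Subtype.ext (mul_left_cancel (congrArg Subtype.val e)))
    rw [card_centralizer_coe]
    refine b1.trans ((card_eq_relIndex_mul_card_inf K _).le.trans (Nat.mul_le_mul ?_ ?_))
    · exact Subgroup.relIndex_le_of_le_right inf_le_left Subgroup.index_ne_zero_of_finite
    · exact Subgroup.card_le_of_le (inf_le_inf_left _ inf_le_right)
  have a4 := sum_le_sum fun k (_ : k ∈ univ) => a3 k
  rw [a2, ← mul_sum, sum_card_centralizer, ← mul_assoc] at a4
  exact a1.trans (Nat.le_of_mul_le_mul_right a4 Nat.card_pos)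

theorem two_pow_bound (m : ℕ) : 1 + m * (m - 1) ≤ 2 ^ m := by
  induction m with
  | zero => simp
  | succ m ih =>
    have := @Nat.lt_two_pow_self m
    rcases Nat.lt_or_ge m 3 with h | h
    · interval_cases m <;> simp
    obtain ⟨m, rfl⟩ : ∃ c, m = c + 1 := ⟨m - 1, by omega⟩
    simp only [Nat.add_sub_cancel, pow_succ] at *
    nlinarith

end Cfsg.Agent.KP
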