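import Mathlib
import Cfsg.Agent.KP.Part

/-! Class numbers of point stabilisers in imprimitive groups of large minimal degree. -/

set_option autoImplicit false
set_option linter.unusedSectionVars false

namespace Cfsg.Agent.KP

open Equiv MulAction Finset ChS FG

variable {α : Type} [Fintype α] [DecidableEq α]

theorem imp_num {b s : ℕ} (hb : 2 ≤ b) (hs : 2 ≤ s) :
    ∃ u, u < s ∧ b * u < mu b s ∧ b * s * 2 ^ u ≤ 2 ^ (2 + b * u) := by
  obtain ⟨b, rfl⟩ : ∃ c, b = c + 2 := ⟨b - 2, by omega⟩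
  have key : ∀ u, s ≤ 2 * (u + 1) + 2 → (b + 2) * s * 2 ^ (u + 1) ≤ 2 ^ (2 + (b + 2) * (u + 1)) := fun u h => by
    have h1 : b + 2 ≤ 2 ^ (b + 1) := Nat.lt_two_pow_self
    have h2 : u + 2 ≤ 2 ^ (u + 1) := Nat.lt_two_pow_self
    calc _ ≤ 2 ^ (b + 1) * (2 * 2 ^ (u + 1)) * 2 ^ (u + 1) :=
          Nat.mul_le_mul_right _ (Nat.mul_le_mul h1 (by omega))
      _ = 2 ^ (b + 1 + 1 + (u + 1) + (u + 1)) := by ring
      _ ≤ _ := Nat.pow_le_pow_right two_pos (by nlinarith [Nat.zero_le (b * u)])
  rcases Nat.lt_or_ge s 5 with h | h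
  · refine ⟨1, by omega, ?_, key 0 (by omega)⟩
    have := Nat.mul_le_mul_left (b + 2) hs
    unfold mu
    omega
  · obtain ⟨u, hu⟩ : ∃ u, (s - 1) / 2 = u + 1 := ⟨(s - 1) / 2 - 1, by omega⟩
    refine ⟨u + 1, by omega, ?_, key u (by omega)⟩
    have := Nat.mul_le_mul_left (b + 2) (show 2 * (u + 1) + 1 ≤ s by omega)
    have e : (b + 2) * (2 * (u + 1) + 1) = 2 * ((b + 2) * (u + 1)) + (b + 2) := by ring
    unfold mu
    omega

theorem card_fib {b s : ℕ} (π : α → Fin s) (hπ : ∀ i, #{x | π x = i} = b) (U : Finset (Fin s)) :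
    #{x | π x ∈ U} = b * #U := by
  rw [card_eq_sum_card_fiberwise (f := π) (t := U) fun x hx => by simpa using hx, mul_comm, ← smul_eq_mul]
  refine sum_eq_card_nsmul fun i hi => ?_
  rw [← hπ i, filter_filter]
  exact congrArg card (filter_congr fun x _ => ⟨fun h => h.2, fun h => ⟨h ▸ hi, h⟩⟩)

theorem imp (H : Subgroup (Perm α)) {b s : ℕ} (π : α → Fin s) (hb : 2 ≤ b) (hs : 2 ≤ s)
    (hbs : b * s = Fintype.card α) (hM : Pres H π) (hπ : ∀ i, #{x | π x = i} = b)
    (hm : ∀ g ∈ H, g ≠ 1 → mu b s ≤ g.support.card) (ih : IH (Fintype.card α)) (z : α) :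
    Fintype.card α * kc ↥(H ⊓ stabilizer (Perm α) z) ≤ 2 ^ (Fintype.card α - 1) := by
  obtain ⟨u, u1, u2, u3⟩ := imp_num hb hs
  have sj : Function.Surjective π := fun i => by
    obtain ⟨x, hx⟩ := card_pos.1 (show 0 < #{x | π x = i} by rw [hπ]; omega)
    exact ⟨x, (mem_filter.1 hx).2⟩
  obtain ⟨φ, hφ⟩ := exists_blockHom (H ⊓ stabilizer (Perm α) z) π sj fun g hg => hM g hg.1
  have l1 : s < Fintype.card α := by nlinarith
  have l2 : b < Fintype.card α := by nlinarith
  have e1 : #{i : Fin s | decide (i ≠ π z) = true} + 1 = s := by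
    simp only [decide_eq_true_eq, filter_ne', card_erase_add_one (mem_univ _), card_univ, Fintype.card_fin]
  have fx : ∀ g : ↥(H ⊓ stabilizer (Perm α) z), φ g (π z) = π z := fun g => by
    rw [hφ, show (g : Perm α) z = z from g.2.2]
  have a1 := part ih (fun i => decide (i ≠ π z)) {true} φ.range
    (by
      rintro _ ⟨g, rfl⟩ i
      rw [decide_eq_decide, ← (φ g).injective.ne_iff (x := i), fx])
    (by
      rintro _ ⟨g, rfl⟩ h
      refine Perm.ext fun i => ?_
      by_cases e : i = π z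
      · rw [e, fx]; rfl
      · exact h i (by simpa using e))
    (fun i hi => by rw [mem_singleton.1 hi]; omega)
  simp only [card_singleton, mem_singleton, pow_one] at a1
  obtain ⟨U, U1, U2⟩ := exists_subset_card_eq (s := univ.erase (π z)) (n := u)
    (by rw [card_erase_of_mem (mem_univ _), card_univ, Fintype.card_fin]; omega)
  have U3 : π z ∉ U := fun h => notMem_erase _ _ (U1 h)
  have hk : ∀ g ∈ φ.ker.map (Subgroup.subtype _), g ∈ H ∧ g z = z ∧ ∀ x, π (g x) = π x := by
    rintro _ ⟨g, hg, rfl⟩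
    exact ⟨g.2.1, g.2.2, fun x => (hφ g x).symm.trans (by rw [MonoidHom.mem_ker.1 hg]; rfl)⟩
  have a2 := part ih (fun x => if x = z then none else some (π x)) (Uᶜ.map Function.Embedding.some)
    (φ.ker.map (Subgroup.subtype _))
    (fun g hg x => by
      obtain ⟨-, h1, h2⟩ := hk g hg
      simp only [h2, show g x = z ↔ x = z by rw [← g.injective.eq_iff (a := x), h1]])
    (fun g hg h => by
      obtain ⟨h0, h1, -⟩ := hk g hg
      by_contra k
      refine (u2.trans_le (hm g h0 k)).not_ge ?_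
      rw [← U2, ← card_fib π hπ]
      refine card_le_card fun x hx => mem_filter.2 ⟨mem_univ _, by_contra fun hU => Perm.mem_support.1 hx ?_⟩
      by_cases e : x = z
      · rw [e, h1]
      · exact h x (by simp [e, hU]))
    (fun i hi => by
      obtain ⟨i, -, rfl⟩ := mem_map.1 hi
      have e : ({x | (if x = z then none else some (π x)) = Function.Embedding.some i} : Finset α) =
          ({x | π x = i} : Finset α).erase z := by
        ext x
        by_cases e : x = z <;> simp [e]
      have h1 := card_erase_le (s := ({x | π x = i} : Finset α)) (a := z)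
      have h2 := pred_card_le_card_erase (s := ({x | π x = i} : Finset α)) (a := z)
      rw [e]
      rw [hπ] at h1 h2
      omega)
  have e2 : #{x | (if x = z then none else some (π x)) ∈ Uᶜ.map Function.Embedding.some} + 1 = b * #Uᶜ := by
    rw [← card_fib π hπ, ← card_erase_add_one (s := ({x | π x ∈ Uᶜ} : Finset α)) (a := z) (by simpa using U3)]
    congr 2
    ext x
    by_cases e : x = z <;> simp [e]
  rw [card_map] at a2
  have e3 : #Uᶜ + u = s := by rw [card_compl, U2, Fintype.card_fin]; omega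
  have a3 := kc_le _ φ
  generalize #{x | (if x = z then none else some (π x)) ∈ Uᶜ.map Function.Embedding.some} = D at *
  generalize #{i : Fin s | decide (i ≠ π z) = true} = s' at *
  generalize #Uᶜ = c at *
  have e4 : b * c + b * u = Fintype.card α := by rw [← mul_add, e3, hbs]
  have e5 : 2 ^ (s + 1) = 2 ^ u * 2 ^ c * 2 := by rw [← pow_add, ← pow_succ]; congr 1; omega
  rw [hbs] at u3
  refine Nat.le_of_mul_le_mul_right ?_ (Nat.two_pow_pos (s + 1))
  calc _ ≤ Fintype.card α * (kc _ * kc _) * 2 ^ (s + 1) := Nat.mul_le_mul_right _ (Nat.mul_le_mul_left _ a3)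
    _ = Fintype.card α * 2 ^ u * (kc _ * 2 ^ c * (kc _ * 2)) := by rw [e5]; ring
    _ ≤ 2 ^ (2 + b * u) * (2 ^ D * 2 ^ s') := Nat.mul_le_mul u3 (Nat.mul_le_mul a2 a1)
    _ ≤ _ := by rw [← pow_add, ← pow_add, ← pow_add]; exact Nat.pow_le_pow_right two_pos (by omega)

end Cfsg.Agent.KP
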