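import Mathlib
import Cfsg.Agent.KP.Part
import Cfsg.Agent.ChS.Mi

/-! Class numbers of point stabilisers in primitive groups that are not doubly transitive. -/

set_option autoImplicit false
set_option linter.unusedSectionVars false

namespace Cfsg.Agent.KP

open Equiv MulAction Finset ChS FG

variable {α : Type} [Fintype α] [DecidableEq α]

namespace UniH

open scoped Classical in
/-- the neighbours of `u` in the orbital graph of `(x, y)` -/
noncomputable def Γ (H : Subgroup (Perm α)) (x y u : α) : Finset α := {v | ∃ g ∈ H, g x = u ∧ g y = v}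

/-- the elements supported in a suborbit -/
def N (H : Subgroup (Perm α)) (x y u : α) : Subgroup (Perm α) where
  carrier := {g | g ∈ H ∧ ∀ v, v ∉ Γ H x y u → g v = v}
  one_mem' := ⟨H.one_mem, fun _ _ => rfl⟩
  mul_mem' := fun {a b} ha hb => ⟨H.mul_mem ha.1 hb.1, fun v hv => by rw [Perm.mul_apply, hb.2 v hv, ha.2 v hv]⟩
  inv_mem' := fun {a} ha => ⟨H.inv_mem ha.1, fun v hv => by rw [Perm.inv_eq_iff_eq, ha.2 v hv]⟩

open scoped Classical in
/-- its orbits -/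
noncomputable def O (H : Subgroup (Perm α)) (x y u v : α) : Finset α := {w | ∃ a ∈ N H x y u, a v = w}

variable {H : Subgroup (Perm α)} {x y y' u v : α} {g : Perm α}

theorem mem_Γ : v ∈ Γ H x y u ↔ ∃ g ∈ H, g x = u ∧ g y = v := by simp [Γ]

theorem mem_O {w : α} : w ∈ O H x y u v ↔ ∃ a ∈ N H x y u, a v = w := by simp [O]

theorem self_mem : y ∈ Γ H x y x := mem_Γ.2 ⟨1, H.one_mem, rfl, rfl⟩

theorem Γ_map (hg : g ∈ H) (h : v ∈ Γ H x y u) : g v ∈ Γ H x y (g u) := by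
  obtain ⟨k, hk, rfl, rfl⟩ := mem_Γ.1 h
  exact mem_Γ.2 ⟨g * k, H.mul_mem hg hk, rfl, rfl⟩

theorem Γ_iff (hg : g ∈ H) : g v ∈ Γ H x y (g u) ↔ v ∈ Γ H x y u :=
  ⟨fun h => by simpa using Γ_map (H.inv_mem hg) h, Γ_map hg⟩

theorem notMem (hy : y ≠ x) : u ∉ Γ H x y u := fun h => by
  obtain ⟨k, -, h1, h2⟩ := mem_Γ.1 h
  exact hy (k.injective (h2.trans h1.symm))

theorem Γ_sub (h : v ∈ Γ H x y u) (h' : v ∈ Γ H x y' u) (w : α) : Γ H x y w ⊆ Γ H x y' w := fun z hz => by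
  obtain ⟨a, ha, rfl, rfl⟩ := mem_Γ.1 h
  obtain ⟨b, hb, b1, b2⟩ := mem_Γ.1 h'
  obtain ⟨c, hc, rfl, rfl⟩ := mem_Γ.1 hz
  exact mem_Γ.2 ⟨c * a⁻¹ * b, H.mul_mem (H.mul_mem hc (H.inv_mem ha)) hb, by simp [b1], by simp [b2]⟩

theorem Γ_eq (h : v ∈ Γ H x y u) (h' : v ∈ Γ H x y' u) (w : α) : Γ H x y w = Γ H x y' w :=
  (Γ_sub h h' w).antisymm (Γ_sub h' h w)

theorem tr (hG : IsPreprimitive H α) (u v : α) : ∃ g ∈ H, g u = v := by
  obtain ⟨g, hg⟩ := hG.toIsPretransitive.exists_smul_eq u v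
  exact ⟨g, g.2, hg⟩

theorem card_Γ (hG : IsPreprimitive H α) (u v : α) : #(Γ H x y u) = #(Γ H x y v) := by
  obtain ⟨g, hg, rfl⟩ := tr hG u v
  exact card_equiv g fun w => (Γ_iff hg).symm

theorem N_conj (hg : g ∈ H) {a : Perm α} (ha : a ∈ N H x y u) : g * a * g⁻¹ ∈ N H x y (g u) :=
  ⟨H.mul_mem (H.mul_mem hg ha.1) (H.inv_mem hg), fun v hv => by
    have := ha.2 (g⁻¹ v) fun h => hv (by simpa using Γ_map hg h)
    rw [Perm.mul_apply, Perm.mul_apply, this]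
    simp⟩

theorem O_map (hg : g ∈ H) {w : α} (h : w ∈ O H x y u v) : g w ∈ O H x y (g u) (g v) := by
  obtain ⟨a, ha, rfl⟩ := mem_O.1 h
  exact mem_O.2 ⟨_, N_conj hg ha, by simp⟩

theorem card_O (h : v ∈ Γ H x y u) : #(O H x y u v) = #(O H x y x y) := by
  obtain ⟨g, hg, rfl, rfl⟩ := mem_Γ.1 h
  exact (card_equiv g fun w => ⟨O_map hg, fun h => by simpa using O_map (H.inv_mem hg) h⟩).symm

theorem exists_diff (hG : IsPreprimitive H α) (hy : y ≠ x) (h : u ≠ v) : ∃ w ∈ Γ H x y u, w ∉ Γ H x y v := by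
  by_contra k
  push Not at k
  have := rel_all_of_preprimitive hG (fun a b => Γ H x y a = Γ H x y b) ⟨fun _ => rfl, Eq.symm, Eq.trans⟩
    (fun g hg a b e => by
      ext w
      obtain ⟨w, rfl⟩ := g.surjective w
      rw [Γ_iff hg, Γ_iff hg, e]) h (eq_of_subset_of_card_le k (card_Γ hG v u).le) x y
  exact notMem hy (this ▸ self_mem)

theorem lt (hG : IsPreprimitive H α) (hy' : y' ≠ x) (h : N H x y x ≠ ⊥) (hp : x ∉ Γ H x y' y) :
    #(O H x y' x y') < #(O H x y x y) := by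
  obtain ⟨a, ha, a1⟩ : ∃ a ∈ N H x y x, a y ≠ y := by
    obtain ⟨⟨a, ha⟩, a1⟩ := Subgroup.ne_bot_iff_exists_ne_one.1 h
    obtain ⟨w, hw⟩ : ∃ w, a w ≠ w := by
      by_contra k
      push Not at k
      exact a1 (Subtype.ext (Perm.ext k))
    obtain ⟨g, hg, g1, rfl⟩ := mem_Γ.1 (by_contra fun k => hw (ha.2 w k))
    have := N_conj (H.inv_mem hg) ha
    rw [show g⁻¹ x = x by rw [Perm.inv_eq_iff_eq, g1]] at this
    exact ⟨_, this, fun e => hw (by simpa [Perm.inv_eq_iff_eq, Equiv.symm_apply_eq] using e)⟩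
  obtain ⟨w, w1, w2⟩ := exists_diff hG hy' a1.symm
  have w3 : w ∈ Γ H x y x := by_contra fun k => w2 (by have := Γ_map ha.1 w1; rwa [ha.2 w k] at this)
  rw [← card_O w1, ← card_O w3]
  refine card_lt_card ⟨fun z hz => ?_, fun k => ?_⟩
  · obtain ⟨b, hb, rfl⟩ := mem_O.1 hz
    have h1 := N_conj hb.1 ha
    rw [hb.2 x hp] at h1
    have h2 := (N_conj ha.1 (inv_mem hb)).2 w w2
    refine mem_O.2 ⟨_, mul_mem h1 (inv_mem ha), ?_⟩
    rw [show b * a * b⁻¹ * a⁻¹ = b * (a * b⁻¹ * a⁻¹) by group, Perm.mul_apply, h2]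
  · obtain ⟨b, hb, e⟩ := mem_O.1 (k (mem_O.2 ⟨_, inv_mem ha, rfl⟩))
    have h1 := Γ_map hb.1 w1
    rw [e, hb.2 y (notMem hy')] at h1
    exact w2 (by simpa using Γ_map ha.1 h1)

theorem uniq (hG : IsPreprimitive H α) (hy : y ≠ x) (hy' : y' ≠ x) (h : N H x y x ≠ ⊥) (h' : N H x y' x ≠ ⊥) :
    y' ∈ Γ H x y x := by
  have h1 : x ∈ Γ H x y y := by_contra fun k => (lt hG hy h k).false
  have h2 : x ∈ Γ H x y' y' := by_contra fun k => (lt hG hy' h' k).false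
  by_cases a : x ∈ Γ H x y' y
  · exact Γ_sub a h1 x self_mem
  by_cases b : x ∈ Γ H x y y'
  · exact Γ_sub h2 b x self_mem
  exact absurd (lt hG hy' h a) (lt hG hy h' b).not_gt

theorem card_le_sq (hG : IsPreprimitive H α) (hu : u ≠ x) (hu' : u ∉ Γ H x y x) (hy : y ≠ x) {m : ℕ}
    (hm : ∀ z, z ≠ x → z ∉ Γ H x y x → #(Γ H x z x) ≤ m) : #(Γ H x y x) ≤ m * m := by
  obtain ⟨z, z1, z2⟩ := exists_diff hG hy hu.symm
  obtain ⟨g, hg, g1⟩ := tr hG x u
  have h1 : z ∈ Γ H x (g⁻¹ z) u := mem_Γ.2 ⟨g, hg, g1, by simp⟩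
  have h2 : g⁻¹ z ≠ x := fun e => hu' (by rw [Perm.inv_eq_iff_eq, g1] at e; exact e ▸ z1)
  have h3 : g⁻¹ z ∉ Γ H x y x := fun e => z2 (Γ_sub self_mem e u h1)
  have h4 : Γ H x y x ⊆ (Γ H x u x).biUnion (Γ H x (g⁻¹ z)) := fun v hv => by
    obtain ⟨k, hk, k1, rfl⟩ := mem_Γ.1 (Γ_sub z1 self_mem x hv)
    exact mem_biUnion.2 ⟨k u, mem_Γ.2 ⟨k, hk, k1, rfl⟩, Γ_map hk h1⟩
  refine (card_le_card h4).trans ((card_biUnion_le_card_mul _ _ m fun w _ => ?_).trans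
    (Nat.mul_le_mul_right _ (hm u hu hu')))
  exact (card_Γ hG w x).le.trans (hm _ h2 h3)

end UniH

open UniH in
theorem uni (H : Subgroup (Perm α)) (hG : IsPreprimitive H α) (ih : IH (Fintype.card α)) (x : α)
    (h2 : ∃ y z, y ≠ x ∧ z ≠ x ∧ ¬ ∃ g ∈ H, g x = x ∧ g y = z) :
    Fintype.card α * kc ↥(H ⊓ stabilizer (Perm α) x) ≤ 2 ^ (Fintype.card α - 1) := by
  classical
  obtain ⟨y1, y2, a1, a2, a3⟩ := h2
  obtain ⟨y, hy, hN⟩ : ∃ y, y ≠ x ∧ ∀ z, z ≠ x → z ∉ Γ H x y x → N H x z x = ⊥ := by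
    by_cases k : ∃ y, y ≠ x ∧ N H x y x ≠ ⊥
    · obtain ⟨y, hy, k⟩ := k
      exact ⟨y, hy, fun z hz h => by_contra fun k' => h (uniq hG hy hz k k')⟩
    · push Not at k
      exact ⟨y1, a1, fun z hz _ => k z hz⟩
  set E : Finset α := {z | z ≠ x ∧ z ∉ Γ H x y x} with hE
  have mE : ∀ z, z ∈ E ↔ z ≠ x ∧ z ∉ Γ H x y x := by simp [hE]
  have hne : E.Nonempty := by
    by_contra k
    have : ∀ z, z ≠ x → z ∈ Γ H x y x := fun z hz => by_contra fun h => k ⟨z, (mE z).2 ⟨hz, h⟩⟩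
    exact a3 (mem_Γ.1 (Γ_sub (this y1 a1) self_mem x (this y2 a2)))
  obtain ⟨u, hu, hmax⟩ := exists_max_image E (fun z => #(Γ H x z x)) hne
  obtain ⟨u1, u2⟩ := (mE u).1 hu
  have fib : ∀ z v, Γ H x v x = Γ H x z x ↔ v ∈ Γ H x z x := fun z v =>
    ⟨fun e => e ▸ self_mem, fun h => Γ_eq self_mem h x⟩
  have fib' : ∀ z, ({v | Γ H x v x = Γ H x z x} : Finset α) = Γ H x z x := fun z => by ext v; simp [fib]
  set R' := E.image fun z => Γ H x z x with hR'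
  have r1 : Γ H x u x ∈ R' := mem_image_of_mem _ hu
  have r2 : Γ H x y x ∉ R'.erase (Γ H x u x) := fun h => by
    obtain ⟨z, hz, e⟩ := mem_image.1 (mem_of_mem_erase h)
    exact ((mE z).1 hz).2 ((fib _ _).1 e)
  have lt1 : ∀ z, z ≠ x → 0 < #(Γ H x z x) ∧ #(Γ H x z x) < Fintype.card α := fun z hz =>
    ⟨card_pos.2 ⟨z, self_mem⟩, (card_lt_iff_ne_univ _).2 fun e => notMem (H := H) (u := x) hz (e ▸ mem_univ _)⟩
  have key := part ih (fun v => Γ H x v x) (insert (Γ H x y x) (R'.erase (Γ H x u x))) (H ⊓ stabilizer (Perm α) x)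
    (fun g hg v => (fib _ _).2 (mem_Γ.2 ⟨g, hg.1, hg.2, rfl⟩))
    (fun g hg h => by
      refine Subgroup.mem_bot.1 (hN u u1 u2 ▸ (⟨hg.1, fun v hv => ?_⟩ : g ∈ N H x u x))
      by_cases e : v = x
      · exact e ▸ hg.2
      by_cases e' : v ∈ Γ H x y x
      · exact h v (mem_insert.2 (Or.inl ((fib _ _).2 e')))
      · exact h v (mem_insert_of_mem (mem_erase.2 ⟨fun k => hv ((fib _ _).1 k), mem_image_of_mem _ ((mE v).2 ⟨e, e'⟩)⟩)))
    (fun i hi => by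
      rcases mem_insert.1 hi with rfl | hi
      · rw [fib']; exact lt1 y hy
      · obtain ⟨z, hz, rfl⟩ := mem_image.1 (mem_of_mem_erase hi)
        rw [fib']; exact lt1 z ((mE z).1 hz).1)
  have c1 : #(insert (Γ H x y x) (R'.erase (Γ H x u x))) = #R' := by
    rw [card_insert_of_notMem r2, card_erase_add_one r1]
  have c2 : #{v | Γ H x v x ∈ insert (Γ H x y x) (R'.erase (Γ H x u x))} + (#(Γ H x u x) + 1) ≤ Fintype.card α := by
    rw [← card_insert_of_notMem (notMem (H := H) (u := x) u1), ← card_union_of_disjoint]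
    · exact card_le_univ _
    refine disjoint_left.2 fun v hv hv' => ?_
    rcases mem_insert.1 hv' with rfl | hv'
    · rcases mem_insert.1 (mem_filter.1 hv).2 with e | e
      · exact notMem hy ((fib _ _).1 e)
      · obtain ⟨z, hz, e⟩ := mem_image.1 (mem_of_mem_erase e)
        exact notMem ((mE z).1 hz).1 ((fib _ _).1 e.symm)
    · rw [mem_filter, (fib _ _).2 hv'] at hv
      rcases mem_insert.1 hv.2 with e | e
      · exact u2 ((fib _ _).1 e)
      · exact notMem_erase _ _ e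
  have c3 : #E ≤ #(Γ H x u x) * #R' := card_le_mul_card_image E _ fun i hi => by
    obtain ⟨z, hz, rfl⟩ := mem_image.1 hi
    exact (card_le_card fun v hv => (fib _ _).1 (mem_filter.1 hv).2).trans (hmax z hz)
  have c4 := card_le_sq hG u1 u2 hy fun z h1 h2 => hmax z ((mE z).2 ⟨h1, h2⟩)
  have c5 : Fintype.card α ≤ #E + #(Γ H x y x) + 1 := by
    have : (univ : Finset α) ⊆ insert x (E ∪ Γ H x y x) := fun v _ => by
      simp only [mem_insert, mem_union, mE]; tauto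
    exact (card_le_card this).trans ((card_insert_le _ _).trans (Nat.succ_le_succ (card_union_le _ _)))
  have c6 : 0 < #R' := card_pos.2 ⟨_, r1⟩
  rw [c1] at key
  generalize #{v | Γ H x v x ∈ insert (Γ H x y x) (R'.erase (Γ H x u x))} = D at *
  generalize #(Γ H x u x) = g at *
  generalize #R' = ρ at *
  have c7 : Fintype.card α ≤ 2 ^ (g + ρ) := by
    refine le_trans ?_ (two_pow_bound (g + ρ))
    have : g * (g + ρ) ≤ (g + ρ) * (g + ρ - 1) := by rw [mul_comm]; exact Nat.mul_le_mul_left _ (by omega)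
    nlinarith
  refine Nat.le_of_mul_le_mul_right ?_ (Nat.two_pow_pos ρ)
  calc _ = Fintype.card α * (kc _ * 2 ^ ρ) := by ring
    _ ≤ 2 ^ (g + ρ) * 2 ^ D := Nat.mul_le_mul c7 key
    _ ≤ _ := by rw [← pow_add, ← pow_add]; exact Nat.pow_le_pow_right two_pos (by omega)

end Cfsg.Agent.KP
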