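import Mathlib
import Cfsg.Agent.KP.Uni
import Cfsg.Agent.KP.Imp
import Cfsg.Agent.ChS.Tow
import Cfsg.Agent.ChS.MD

/-! Class numbers of two point stabilisers in doubly, not triply, transitive groups. -/

set_option autoImplicit false
set_option linter.unusedSectionVars false

namespace Cfsg.Agent.KP

open Equiv MulAction Finset ChS FG

theorem lift {α : Type} (p : α → Prop) [DecidablePred p] {g : Perm α} (h : ∀ x, ¬ p x → g x = x) :
    ∃ g' : Perm (Subtype p), Perm.ofSubtype g' = g ∧ ∀ a, (g' a).1 = g a := by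
  obtain ⟨g', e⟩ := (Perm.subtypeEquivSubtypePerm p).surjective ⟨g, h⟩
  have e' : Perm.ofSubtype g' = g := congrArg Subtype.val e
  exact ⟨g', e', fun a => by rw [← e', Perm.ofSubtype_apply_coe]⟩

theorem kc_comap {α : Type} (p : α → Prop) [DecidablePred p] (K : Subgroup (Perm α))
    (h : ∀ g ∈ K, ∀ x, ¬ p x → g x = x) :
    kc (K.comap (Perm.ofSubtype : Perm (Subtype p) →* Perm α)) = kc K := by
  rw [← kc_map _ (Perm.ofSubtype : Perm (Subtype p) →* Perm α) Perm.ofSubtype_injective,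
    Subgroup.map_comap_eq_self fun g hg => (lift p (h g hg)).imp fun _ k => k.1]

theorem end2 {Y : Type} [Fintype Y] [DecidableEq Y] (L : Subgroup (Perm Y)) (x₀ z : Y) (hz : z ≠ x₀)
    (h1 : ∀ a b, ∃ g ∈ L, g a = b) (h2 : ∀ a b, a ≠ x₀ → b ≠ x₀ → ∃ g ∈ L, g x₀ = x₀ ∧ g a = b)
    (h3 : ∃ y w, y ≠ x₀ ∧ y ≠ z ∧ w ≠ x₀ ∧ w ≠ z ∧ ¬ ∃ g ∈ L, g x₀ = x₀ ∧ g z = z ∧ g y = w)
    (ih : IH (Fintype.card Y - 1)) :
    (Fintype.card Y - 1) * kc ↥(L ⊓ stabilizer (Perm Y) x₀ ⊓ stabilizer (Perm Y) z) ≤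
      2 ^ (Fintype.card Y - 1 - 1) := by
  have hZ : Fintype.card Y - 1 = Fintype.card {y // y ≠ x₀} := by have := card_ne x₀; omega
  have t1 : IsPretransitive L Y := ⟨fun a b => by
    obtain ⟨g, hg, e⟩ := h1 a b
    exact ⟨⟨g, hg⟩, e⟩⟩
  have t2 : IsPretransitive (St L x₀) {y // y ≠ x₀} := ⟨fun a b => by
    obtain ⟨g, hg, e1, e2⟩ := h2 a b a.2 b.2
    obtain ⟨g', rfl, k⟩ := lift (fun y => y ≠ x₀) (g := g) fun y hy => by rw [not_not.1 hy, e1]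
    exact ⟨⟨g', hg⟩, Subtype.ext ((k a).trans e2)⟩⟩
  have fx : ∀ g : Perm {y // y ≠ x₀}, (Perm.ofSubtype g : Perm Y) x₀ = x₀ := fun g =>
    Perm.ofSubtype_apply_of_not_mem g (not_not.2 rfl)
  have e : (L ⊓ stabilizer (Perm Y) x₀ ⊓ stabilizer (Perm Y) z).comap
      (Perm.ofSubtype : Perm {y // y ≠ x₀} →* Perm Y) = St L x₀ ⊓ stabilizer _ (⟨z, hz⟩ : {y // y ≠ x₀}) := by
    ext g
    have k := Perm.ofSubtype_apply_coe g ⟨z, hz⟩
    exact ⟨fun h => ⟨h.1.1, Subtype.ext (k.symm.trans h.2)⟩,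
      fun h => ⟨⟨h.1, fx g⟩, k.trans (congrArg Subtype.val h.2)⟩⟩
  rw [← kc_comap (fun y => y ≠ x₀) _ fun g hg y hy => by rw [not_not.1 hy]; exact hg.1.2, e, hZ]
  rw [hZ] at ih
  by_cases hp : IsPreprimitive (St L x₀) {y // y ≠ x₀}
  · obtain ⟨y, w, a1, a2, a3, a4, a5⟩ := h3
    refine uni _ hp ih _ ⟨⟨y, a1⟩, ⟨w, a3⟩, fun k => a2 (congrArg Subtype.val k), fun k => a4 (congrArg Subtype.val k), ?_⟩
    rintro ⟨g, hg, b1, b2⟩
    exact a5 ⟨_, hg, fx g, (Perm.ofSubtype_apply_coe g ⟨z, hz⟩).trans (congrArg Subtype.val b1),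
      (Perm.ofSubtype_apply_coe g ⟨y, a1⟩).trans (congrArg Subtype.val b2)⟩
  · obtain ⟨b, s, π, hb, hs, hbs, hM, hπ⟩ := exists_part (St L x₀) t2 hp
    refine imp _ π hb hs hbs hM hπ (fun g hg hg1 => ?_) ih _
    rw [← card_support_ofSubtype x₀ g]
    exact min_degree L ((St_multi L t1 x₀ 1).1 (is_one_pretransitive_iff.2 t2)) x₀ π hb hs
      (by rw [hbs, card_ne]) hM hπ _ hg fun h => hg1 (Perm.ofSubtype_injective (h.trans (map_one _).symm))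

end Cfsg.Agent.KP
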