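import Mathlib
import Cfsg.Agent.KP.End

/-! Class numbers of primitive groups: follow the cycle through the first point. -/

set_option autoImplicit false

namespace Cfsg.Agent.KP

open Equiv MulAction Finset ChS FG

namespace TowH

variable {n : ℕ} (G : Subgroup (Perm (Fin n)))

/-- the stabiliser of the first `m` points -/
def K (m : ℕ) : Subgroup (Perm (Fin n)) where
  carrier := {g | g ∈ G ∧ ∀ x : Fin n, x.1 < m → g x = x}
  one_mem' := ⟨G.one_mem, fun _ _ => rfl⟩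
  mul_mem' := fun {a b} ha hb => ⟨G.mul_mem ha.1 hb.1, fun v hv => by rw [Perm.mul_apply, hb.2 v hv, ha.2 v hv]⟩
  inv_mem' := fun {a} ha => ⟨G.inv_mem ha.1, fun v hv => by rw [Perm.inv_eq_iff_eq, ha.2 v hv]⟩

/-- the elements shifting the first `m` points -/
def X (m : ℕ) : Set G := {g | ∀ x y : Fin n, x.1 + 1 = y.1 → y.1 < m → g.1 x = y}

/-- transitivity on the remaining points -/
def T (m : ℕ) : Prop := ∀ a b : Fin n, m ≤ a.1 → m ≤ b.1 → ∃ g ∈ K G m, g a = b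

/-- the number of classes meeting `X m` -/
noncomputable def c (m : ℕ) : ℕ := (ConjClasses.mk '' X G m).ncard

theorem K_le (m : ℕ) : K G m ≤ G := fun _ h => h.1

theorem kc_sub (m : ℕ) : kc ((K G m).subgroupOf G) = kc (K G m) :=
  card_conjClasses_congr (Subgroup.subgroupOfEquivOfLe (K_le G m))

theorem conj_apply {m : ℕ} {k : G} (hk : k ∈ (K G m).subgroupOf G) (g : G) {x : Fin n} (hx : x.1 < m) :
    (k * g * k⁻¹).1 x = k.1 (g.1 x) := by
  change k.1 (g.1 (k.1⁻¹ x)) = _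
  rw [(inv_mem (show k.1 ∈ K G m from hk)).2 x hx]

theorem conj {m : ℕ} (k : G) (hk : k ∈ (K G m).subgroupOf G) (g : G) (hg : g ∈ X G m) : k * g * k⁻¹ ∈ X G m :=
  fun x y h1 h2 => by rw [conj_apply G hk g (by omega), hg x y h1 h2, (show k.1 ∈ K G m from hk).2 y h2]

theorem c_one : c G 1 = kc G := by
  have : X G 1 = Set.univ := Set.eq_univ_of_forall fun g x y h1 h2 => by omega
  rw [c, this, Set.image_univ, Set.range_eq_univ.2 ConjClasses.mk_surjective, Set.ncard_univ]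

theorem card_ge {m : ℕ} (h : m < n) : #{x : Fin n | m ≤ x.1} = n - m := by
  rw [← Fin.card_Ici (⟨m, h⟩ : Fin n)]
  congr 1
  ext x
  simp [Fin.le_def]

theorem K_bound (ih : IH n) {m : ℕ} (h1 : 1 ≤ m) (h : m < n) : kc (K G m) ≤ 2 ^ (n - m - 1) := by
  have e : Fintype.card {x : Fin n // m ≤ x.1} = n - m := by rw [Fintype.card_subtype, card_ge h]
  rw [← kc_comap (fun x : Fin n => m ≤ x.1) (K G m) fun g hg x hx => hg.2 x (not_le.1 hx), ← e]
  exact ih _ _ (by omega)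

theorem step {m : ℕ} (h : m + 1 < n) (ht : T G (m + 1)) : c G (m + 1) ≤ kc (K G (m + 1)) + c G (m + 1 + 1) := by
  set Y : Set G := {g | g ∈ X G (m + 1) ∧ g.1 ⟨m, by omega⟩ = ⟨0, by omega⟩}
  have a1 := coset (K := (K G (m + 1)).subgroupOf G) (H := (K G (m + 1)).subgroupOf G) Y
    (fun a ha b hb => ⟨(a⁻¹ * b).2, fun x hx => by
      change a.1⁻¹ (b.1 x) = x
      rw [Perm.inv_eq_iff_eq]
      rcases Nat.lt_succ_iff_lt_or_eq.1 hx with e | e
      · rw [ha.1 x ⟨x + 1, by omega⟩ rfl (by simpa), hb.1 x ⟨x + 1, by omega⟩ rfl (by simpa)]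
      · rw [show x = ⟨m, by omega⟩ from Fin.ext e, ha.2, hb.2]⟩)
    fun k hk g hg => ⟨conj G k hk g hg.1, by
      rw [conj_apply G hk g (by simp), hg.2, (show k.1 ∈ K G _ from hk).2 _ (by simp)]⟩
  rw [Subgroup.relIndex_self, one_mul, kc_sub] at a1
  refine le_trans (Set.ncard_le_ncard (t := ConjClasses.mk '' Y ∪ ConjClasses.mk '' X G (m + 2)) ?_)
    ((Set.ncard_union_le _ _).trans (Nat.add_le_add_right a1 _))
  rintro _ ⟨g, hg, rfl⟩
  rcases Nat.lt_or_ge (g.1 ⟨m, by omega⟩).1 (m + 1) with e | e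
  · refine Or.inl ⟨g, ⟨hg, ?_⟩, rfl⟩
    by_contra k
    have k0 : (g.1 ⟨m, by omega⟩).1 ≠ 0 := fun k' => k (Fin.ext k')
    have := congrArg Fin.val (g.1.injective (hg ⟨(g.1 ⟨m, by omega⟩).1 - 1, by omega⟩ _ (by simp only; omega) e))
    simp only at this
    omega
  · obtain ⟨k, hk, k1⟩ := ht _ ⟨m + 1, h⟩ e le_rfl
    refine Or.inr ⟨⟨k, hk.1⟩ * g * ⟨k, hk.1⟩⁻¹, fun x y h1 h2 => ?_,
      (ConjClasses.mk_eq_mk_iff_isConj.2 (isConj_iff.2 ⟨_, rfl⟩)).symm⟩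
    rcases Nat.lt_succ_iff_lt_or_eq.1 h2 with e' | e'
    · exact conj G ⟨k, hk.1⟩ hk g hg x y h1 e'
    · rw [conj_apply G (m := m + 1) hk g (by omega), show x = ⟨m, by omega⟩ from Fin.ext (by simp only; omega), k1]
      exact Fin.ext e'.symm

theorem K_succ {j : ℕ} (h : j < n) : K G (j + 1) = K G j ⊓ stabilizer _ (⟨j, h⟩ : Fin n) := by
  ext g
  refine ⟨fun k => ⟨⟨k.1, fun x hx => k.2 x (by omega)⟩, k.2 _ (by simp)⟩, fun k => ⟨k.1.1, fun x hx => ?_⟩⟩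
  rcases Nat.lt_succ_iff_lt_or_eq.1 hx with e | e
  · exact k.1.2 x e
  · rw [show x = ⟨j, h⟩ from Fin.ext e]
    exact k.2

theorem moved {m : ℕ} {g : Perm (Fin n)} (hg : g ∈ K G m) {x : Fin n} (hx : m ≤ x.1) : m ≤ (g x).1 := by
  by_contra k
  have := g.injective (hg.2 _ (not_le.1 k))
  omega

theorem last {j : ℕ} (h : j < n) : c G (j + 1) ≤ (n - j) * kc (K G (j + 1)) := by
  have a1 := coset (K := (K G (j + 1)).subgroupOf G) (H := (K G j).subgroupOf G) (X G (j + 1))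
    (fun a ha b hb => ⟨(a⁻¹ * b).2, fun x hx => by
      change a.1⁻¹ (b.1 x) = x
      rw [Perm.inv_eq_iff_eq, ha x ⟨x + 1, by omega⟩ rfl (by simpa), hb x ⟨x + 1, by omega⟩ rfl (by simpa)]⟩)
    (conj G)
  rw [kc_sub, Subgroup.relIndex_subgroupOf (K_le G j)] at a1
  refine a1.trans (Nat.mul_le_mul_right _ ?_)
  have e : (K G (j + 1)).subgroupOf (K G j) = stabilizer (K G j) (⟨j, h⟩ : Fin n) := by
    rw [K_succ G h, Subgroup.inf_subgroupOf_left]
    rfl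
  rw [Subgroup.relIndex, e, index_stabilizer, ← card_ge h, ← Set.ncard_coe_finset]
  refine Set.ncard_le_ncard ?_
  rintro _ ⟨g, rfl⟩
  exact mem_coe.2 (mem_filter.2 ⟨mem_univ _, moved G g.2 (x := ⟨j, h⟩) le_rfl⟩)

theorem notT {j : ℕ} (h : j < n) (hT : ¬ T G (j + 1)) : ∃ y z : Fin n, j < y.1 ∧ j < z.1 ∧
    ¬ ∃ g ∈ K G j, g ⟨j, h⟩ = ⟨j, h⟩ ∧ g y = z := by
  by_contra k
  refine hT fun a b ha hb => by_contra fun k' => k ⟨a, b, ha, hb, ?_⟩
  rintro ⟨g, hg, e1, e2⟩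
  exact k' ⟨g, K_succ G h ▸ ⟨hg, e1⟩, e2⟩

theorem fin2 (ih : IH n) {i : ℕ} (h : i + 1 < n) (t0 : T G i) (t1 : T G (i + 1)) (t2 : ¬ T G (i + 2)) :
    (n - (i + 1)) * kc (K G (i + 2)) ≤ 2 ^ (n - (i + 1) - 1) := by
  have h' : i < n := by omega
  have e : Fintype.card {x : Fin n // i ≤ x.1} = n - i := by rw [Fintype.card_subtype, card_ge h']
  have lf : ∀ g ∈ K G i, ∃ g' : Perm {x : Fin n // i ≤ x.1}, Perm.ofSubtype g' = g ∧ ∀ a, (g' a).1 = g a :=
    fun g hg => lift _ fun x hx => hg.2 x (not_le.1 hx)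
  have ap := fun (g : Perm {x : Fin n // i ≤ x.1}) => Perm.ofSubtype_apply_coe g
  have key := end2 ((K G i).comap (Perm.ofSubtype : Perm {x : Fin n // i ≤ x.1} →* Perm (Fin n)))
    ⟨⟨i, h'⟩, le_rfl⟩ ⟨⟨i + 1, h⟩, Nat.le_succ i⟩ (by simp)
    (fun a b => by
      obtain ⟨g, hg, k⟩ := t0 a b a.2 b.2
      obtain ⟨g', rfl, k'⟩ := lf g hg
      exact ⟨g', hg, Subtype.ext ((k' a).trans k)⟩)
    (fun a b ha hb => by
      have lt : ∀ a : {x : Fin n // i ≤ x.1}, a ≠ ⟨⟨i, h'⟩, le_rfl⟩ → i + 1 ≤ a.1.1 := fun a ha =>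
        a.2.lt_of_ne fun k => ha (Subtype.ext (Fin.ext k.symm))
      obtain ⟨g, hg, k⟩ := t1 a b (lt a ha) (lt b hb)
      rw [K_succ G h'] at hg
      obtain ⟨g', rfl, k'⟩ := lf g hg.1
      exact ⟨g', hg.1, Subtype.ext ((k' _).trans hg.2), Subtype.ext ((k' a).trans k)⟩)
    (by
      obtain ⟨y, z, a1, a2, a3⟩ := notT G h t2
      have ne : ∀ (a : Fin n) (k : i ≤ a.1) (b : {x : Fin n // i ≤ x.1}), b.1.1 < a.1 → ⟨a, k⟩ ≠ b :=
        fun a k b hb e => by rw [← e] at hb; exact hb.false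
      refine ⟨⟨y, by omega⟩, ⟨z, by omega⟩, ne _ _ _ (by simp only; omega), ne _ _ _ a1,
        ne _ _ _ (by simp only; omega), ne _ _ _ a2, ?_⟩
      rintro ⟨g, hg, b1, b2, b3⟩
      exact a3 ⟨_, K_succ G h' ▸ ⟨hg, (ap g ⟨⟨i, h'⟩, le_rfl⟩).trans (congrArg Subtype.val b1)⟩,
        (ap g ⟨⟨i + 1, h⟩, Nat.le_succ i⟩).trans (congrArg Subtype.val b2),
        (ap g ⟨y, by omega⟩).trans (congrArg Subtype.val b3)⟩)
    (ih.mono (by omega))
  rw [e] at key
  rw [← kc_comap (fun x : Fin n => i ≤ x.1) (K G (i + 2)) fun g hg x hx => hg.2 x (by omega), K_succ G h, K_succ G h']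
  refine le_trans (le_of_eq (congrArg (fun S : Subgroup _ => (n - i - 1) * kc S) ?_)) key
  ext g
  have k1 := ap g ⟨⟨i, h'⟩, le_rfl⟩
  have k2 := ap g ⟨⟨i + 1, h⟩, Nat.le_succ i⟩
  exact ⟨fun k => ⟨⟨k.1.1, Subtype.ext (k1.symm.trans k.1.2)⟩, Subtype.ext (k2.symm.trans k.2)⟩,
    fun k => ⟨⟨k.1.1, k1.trans (congrArg Subtype.val k.1.2)⟩, k2.trans (congrArg Subtype.val k.2)⟩⟩

theorem chain (ih : IH n) (j : ℕ) (h : j < n) (ht : ∀ m < j, T G (m + 1)) :
    kc G + 2 ^ (n - j - 1) ≤ 2 ^ (n - 1) + c G (j + 1) := by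
  induction j with
  | zero => rw [c_one, add_comm]; rfl
  | succ j ihj =>
    have a1 := ihj (by omega) fun m hm => ht m (by omega)
    have a2 := step G h (ht j (by omega))
    have a3 := K_bound G ih (Nat.le_add_left 1 j) h
    rw [show n - j - 1 = n - (j + 1) - 1 + 1 by omega, pow_succ] at a1
    omega

end TowH

open TowH in
theorem prim {n : ℕ} (G : Subgroup (Perm (Fin n))) (hG : IsPreprimitive G (Fin n)) (ih : IH n) (hn : 0 < n) :
    kc G ≤ 2 ^ (n - 1) := by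
  classical
  have ex : ∃ j, j + 1 = n ∨ ¬ T G (j + 1) := ⟨n - 1, Or.inl (by omega)⟩
  have h1 := Nat.find_spec ex
  have h2 : ∀ m < Nat.find ex, T G (m + 1) := fun m hm => not_not.1 (not_or.1 (Nat.find_min ex hm)).2
  have h3 : Nat.find ex < n := (Nat.find_min' ex (m := n - 1) (Or.inl (by omega))).trans_lt (by omega)
  generalize Nat.find ex = j at *
  have t0 : T G 0 := fun a b _ _ => by
    obtain ⟨g, hg, e⟩ := UniH.tr hG a b
    exact ⟨g, ⟨hg, fun _ h => absurd h (Nat.not_lt_zero _)⟩, e⟩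
  have key : (n - j) * kc (K G (j + 1)) ≤ 2 ^ (n - j - 1) := by
    rcases h1 with h | h
    · have := kc_le_one (K := K G (j + 1)) fun g hg => Perm.ext fun x => hg.2 x (by omega)
      rw [show n - j = 1 by omega]
      simpa using this
    rcases j with _ | i
    · obtain ⟨y, z, a1, a2, a3⟩ := notT G h3 h
      have e : K G 0 = G := le_antisymm (K_le G 0) fun g hg => ⟨hg, fun _ h => absurd h (Nat.not_lt_zero _)⟩
      rw [e] at a3
      have := uni G hG (by rwa [Fintype.card_fin]) ⟨0, h3⟩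
        ⟨y, z, fun k => by simp [k] at a1, fun k => by simp [k] at a2, a3⟩
      rw [Fintype.card_fin] at this
      rwa [K_succ G h3, e]
    · refine fin2 G ih h3 ?_ (h2 i (by omega)) h
      rcases i with _ | i
      · exact t0
      · exact h2 i (by omega)
  have a1 := chain G ih j h3 h2
  have a2 := last G h3
  omega

end Cfsg.Agent.KP
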