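import Mathlib
import Cfsg.Agent.KP.Tow

/-! A permutation group of degree `n` has at most `2 ^ (n - 1)` conjugacy classes. -/

set_option autoImplicit false

namespace Cfsg.Agent.KP

open Equiv MulAction Finset ChS FG

theorem half {k n : ℕ} (h : k * 2 ≤ 2 ^ n) (hn : 0 < n) : k ≤ 2 ^ (n - 1) := by
  rw [show n = n - 1 + 1 by omega, pow_succ] at h
  omega

theorem intrans {n : ℕ} (ih : IH n) (G : Subgroup (Perm (Fin n))) {a b : Fin n} (h : ¬ ∃ g ∈ G, g a = b) :
    kc G ≤ 2 ^ (n - 1) := by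
  classical
  have ha : ∃ g ∈ G, g a = a := ⟨1, G.one_mem, rfl⟩
  have lt : ∀ (s : Finset (Fin n)) x y, x ∈ s → y ∉ s → 0 < #s ∧ #s < n := fun s x y hx hy =>
    ⟨card_pos.2 ⟨x, hx⟩, by simpa using (card_lt_iff_ne_univ s).2 fun e => hy (e ▸ mem_univ y)⟩
  have key := part ih (fun x => decide (∃ g ∈ G, g a = x)) univ G
    (fun g hg x => decide_eq_decide.2 ⟨fun ⟨k, hk, e⟩ => ⟨g⁻¹ * k, G.mul_mem (G.inv_mem hg) hk, by simp [e]⟩,
      fun ⟨k, hk, e⟩ => ⟨g * k, G.mul_mem hg hk, by simp [e]⟩⟩)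
    (fun g _ k => Perm.ext fun x => k x (mem_univ _))
    (fun i _ => by
      cases i
      · exact lt _ b a (mem_filter.2 ⟨mem_univ _, decide_eq_false h⟩) fun k => of_decide_eq_false (mem_filter.1 k).2 ha
      · exact lt _ a b (mem_filter.2 ⟨mem_univ _, decide_eq_true ha⟩) fun k => h (of_decide_eq_true (mem_filter.1 k).2))
  simp only [mem_univ, filter_true, card_univ, Fintype.card_fin, Fintype.card_bool] at key
  exact half (by omega) a.pos

theorem imprim {n : ℕ} (ih : IH n) (G : Subgroup (Perm (Fin n))) (ht : IsPretransitive G (Fin n))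
    (hp : ¬ IsPreprimitive G (Fin n)) : kc G ≤ 2 ^ (n - 1) := by
  obtain ⟨b, r, π, hb, hr, hbr, hM, hπ⟩ := exists_part G ht hp
  rw [Fintype.card_fin] at hbr
  have sj : Function.Surjective π := fun i => by
    obtain ⟨x, hx⟩ := card_pos.1 (show 0 < #{x | π x = i} by rw [hπ]; omega)
    exact ⟨x, (mem_filter.1 hx).2⟩
  obtain ⟨φ, hφ⟩ := exists_blockHom G π sj hM
  have l1 : r < n := by nlinarith
  have l2 : b < n := by nlinarith
  have a1 := kc_le G φ
  have a2 := ih _ φ.range (by rwa [Fintype.card_fin])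
  have a3 := part ih π univ (φ.ker.map G.subtype)
    (by
      rintro _ ⟨g, hg, rfl⟩ x
      exact (hφ g x).symm.trans (by rw [MonoidHom.mem_ker.1 hg]; rfl))
    (fun g _ k => Perm.ext fun x => k x (mem_univ _)) fun i _ => by rw [hπ]; omega
  simp only [mem_univ, filter_true, card_univ, Fintype.card_fin] at a2 a3
  refine half (le_trans ?_ a3) (by omega)
  rw [show 2 ^ r = 2 ^ (r - 1) * 2 by rw [← pow_succ]; congr 1; omega, ← mul_assoc]
  exact Nat.mul_le_mul_right _ (a1.trans (Nat.mul_le_mul_left _ a2))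

theorem step {n : ℕ} (ih : IH n) (G : Subgroup (Perm (Fin n))) : kc G ≤ 2 ^ (n - 1) := by
  rcases Nat.eq_zero_or_pos n with rfl | hn
  · exact kc_le_one fun g _ => Subsingleton.elim _ _
  by_cases hp : IsPreprimitive G (Fin n)
  · exact prim G hp ih hn
  by_cases ht : ∀ a b, ∃ g ∈ G, g a = b
  · refine imprim ih G ⟨fun a b => ?_⟩ hp
    obtain ⟨g, hg, e⟩ := ht a b
    exact ⟨⟨g, hg⟩, e⟩
  · obtain ⟨a, ht⟩ := not_forall.1 ht
    obtain ⟨b, ht⟩ := not_forall.1 ht
    exact intrans ih G ht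

theorem transfer {α : Type*} [Fintype α] (ih : IH (Fintype.card α)) (S : Subgroup (Perm α)) :
    kc S ≤ 2 ^ (Fintype.card α - 1) := by
  rw [← kc_map S (Fintype.equivFin α).permCongrHom.toMonoidHom (MulEquiv.injective _)]
  exact step ih _

theorem ih_all (n : ℕ) : IH n := by
  induction n with
  | zero => exact fun β _ _ X h => absurd h (Nat.not_lt_zero _)
  | succ n ih => exact fun β _ _ X h => transfer (ih.mono (by omega)) X

end Cfsg.Agent.KP
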